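import Mathlib
import Cfsg.Agent.Lib.Helper97.Ext.Defs

set_option autoImplicit false

/-! # S5877 farm (helper97), piece [C] (helper63) -/

namespace Cfsg.Agent.Lib.Helper63.Ext

open Matrix Module Cfsg.Agent.Lib.Helper97 Cfsg.Agent.Lib.Helper97.Ext

section general

variable {F : Type*} [Field F] {M : Type*} [AddCommGroup M] [Module F M] [FiniteDimensional F M]

theorem finrank_iSup_le_sum {ι : Type*} [Fintype ι] (V : ι → Submodule F M) :
    finrank F (⨆ i, V i : Submodule F M) ≤ ∑ i, finrank F (V i) := by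
  classical
  rw [Submodule.iSup_eq_range_dfinsupp_lsum]
  refine (LinearMap.finrank_range_le _).trans ?_
  exact le_of_eq (Module.finrank_directSum F (fun i => V i))

theorem finrank_iSup_of_indep {ι : Type*} [Fintype ι] (V : ι → Submodule F M) (h : iSupIndep V) :
    finrank F (⨆ i, V i : Submodule F M) = ∑ i, finrank F (V i) := by
  classical
  rw [Submodule.iSup_eq_range_dfinsupp_lsum,
    LinearMap.finrank_range_of_inj h.dfinsupp_lsum_injective]
  exact Module.finrank_directSum F (fun i => V i)

theorem sum_finrank_le_of_indep {ι : Type*} [Fintype ι] (V : ι → Submodule F M) (h : iSupIndep V)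
    (U : Submodule F M) (hU : ∀ i, V i ≤ U) : ∑ i, finrank F (V i) ≤ finrank F U := by
  rw [← finrank_iSup_of_indep V h]
  exact Submodule.finrank_mono (iSup_le hU)

end general

/-- a sum along a map with fibres of size at most `t` -/
theorem sum_comp_le {ι κ : Type*} [Fintype κ] [DecidableEq κ] (s : Finset ι) (a : ι → κ)
    (h : κ → ℕ) (t : ℕ) (ht : ∀ y, (s.filter (fun j => a j = y)).card ≤ t) :
    ∑ j ∈ s, h (a j) ≤ t * ∑ y, h y := by
  rw [← Finset.sum_fiberwise s a, Finset.mul_sum]
  apply Finset.sum_le_sum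
  intro y _
  have : ∑ j ∈ s.filter (fun j => a j = y), h (a j) = ∑ j ∈ s.filter (fun j => a j = y), h y := by
    apply Finset.sum_congr rfl
    intro j hj
    rw [(Finset.mem_filter.1 hj).2]
  rw [this, Finset.sum_const, smul_eq_mul]
  exact Nat.mul_le_mul_right _ (ht y)

/-- triangular numbers -/
def tri (j : ℕ) : ℕ := ∑ i ∈ Finset.range j, i

theorem tri_succ (j : ℕ) : tri (j + 1) = tri j + j := Finset.sum_range_succ _ _

theorem tri_sq (j : ℕ) : 2 * tri j + j = j * j := by
  induction j with
  | zero => simp [tri]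
  | succ j ih => rw [tri_succ]; nlinarith [ih]

theorem tri_mono {j j' : ℕ} (h : j ≤ j') : tri j ≤ tri j' := by
  induction h with
  | refl => exact le_rfl
  | step _ ih => rw [tri_succ]; omega

theorem tri_pair {r : ℕ} (hr : r.Prime) {j j' : ℕ} (hj' : j' < r) (hlt : j < j')
    (hd : r ∣ tri j' - tri j) : j + j' = 1 ∨ j + j' = r + 1 := by
  obtain ⟨u, rfl⟩ : ∃ u, j' = j + u + 1 := ⟨j' - j - 1, by omega⟩
  have hle := tri_mono (le_of_lt hlt)
  obtain ⟨δ, hδ⟩ : ∃ δ, tri (j + u + 1) = tri j + δ := ⟨_, (Nat.add_sub_cancel' hle).symm⟩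
  have hδ' : tri (j + u + 1) - tri j = δ := by omega
  rw [hδ'] at hd
  have h1 := tri_sq (j + u + 1)
  have h2 := tri_sq j
  rw [hδ] at h1
  have h3 : 2 * δ = (u + 1) * (2 * j + u) := by nlinarith [h1, h2]
  have h4 : r ∣ (u + 1) * (2 * j + u) := by
    rw [← h3]; exact Dvd.dvd.mul_left hd 2
  rcases (Nat.Prime.dvd_mul hr).1 h4 with h | h
  · have := Nat.le_of_dvd (by omega) h
    omega
  · obtain ⟨q, hq⟩ := h
    have hq2 : q < 2 := by
      by_contra hcon
      push Not at hcon
      have : r * 2 ≤ r * q := Nat.mul_le_mul_left r hcon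
      omega
    interval_cases q
    · left; omega
    · right; omega

variable {F : Type*} [Field F] [Fintype F] {n : ℕ}

theorem heis_bound {r : ℕ} (hr : r.Prime) (hr5 : 5 ≤ r)
    (g x Y : GL (Fin n) F) (c κ : F) (hc : c ≠ 0)
    (h1 : g * x = Y * x * g) (h2 : g * Y = Y * g)
    (h3 : ∀ w, L x (L Y w) = κ • L Y (L x w)) (hκ : κ ^ r = 1)
    (h4 : ⨆ μ, eig Y μ = ⊤)
    (h5 : ∀ β, eig Y β ≠ ⊥ → β ^ r = 1)
    (h6 : ∀ β, r * finrank F (eig Y β) ≤ n) :
    2 * finrank F (eig g c) ≤ n := by
  classical
  have hfact : Fact r.Prime := ⟨hr⟩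
  have hκ0 : κ ≠ 0 := by
    rintro rfl
    rw [zero_pow hr.ne_zero] at hκ
    exact zero_ne_one hκ
  set m : F → F → ℕ := fun α β => finrank F (eig g α ⊓ eig Y β : Submodule F (Fin n → F)) with hm
  set D : F → ℕ := fun β => finrank F (eig Y β) with hD
  set d := finrank F (eig g c) with hd
  have hM0a : ∀ β, ∑ α, m α β ≤ D β := by
    intro β
    apply sum_finrank_le_of_indep (fun α => eig g α ⊓ eig Y β)
    · exact (Module.End.eigenspaces_iSupIndep (L g)).mono (fun α => inf_le_left)
    · exact fun α => inf_le_right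
  have hM0b : ∑ β, D β ≤ n := by
    have := sum_finrank_le_of_indep (fun β => eig Y β) (Module.End.eigenspaces_iSupIndep (L Y)) ⊤
      (fun _ => le_top)
    rwa [finrank_top, Module.finrank_fin_fun] at this
  have hM1 : ∀ α β, m α β ≤ m (α * β * κ⁻¹) (β * κ⁻¹) := by
    intro α β
    have hle : (eig g α ⊓ eig Y β : Submodule F (Fin n → F)).map (L x)
        ≤ eig g (α * β * κ⁻¹) ⊓ eig Y (β * κ⁻¹) := by
      rintro _ ⟨v, ⟨hv1, hv2⟩, rfl⟩
      have e1 : L g v = α • v := Module.End.mem_eigenspace_iff.1 hv1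
      have e2 : L Y v = β • v := Module.End.mem_eigenspace_iff.1 hv2
      have e3 : L Y (L x v) = (β * κ⁻¹) • L x v := by
        have := h3 v
        rw [e2, map_smul] at this
        calc L Y (L x v) = κ⁻¹ • (κ • L Y (L x v)) := by
              rw [smul_smul, inv_mul_cancel₀ hκ0, one_smul]
          _ = (β * κ⁻¹) • L x v := by rw [← this, smul_smul, mul_comm]
      refine ⟨Module.End.mem_eigenspace_iff.2 ?_, Module.End.mem_eigenspace_iff.2 e3⟩
      rw [← L_mul_apply, h1, L_mul_apply, L_mul_apply, e1, map_smul, map_smul, e3, smul_smul,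
        mul_assoc]
    have := Submodule.finrank_mono hle
    rwa [finrank_map_L] at this
  have hM3 : d ≤ ∑ β, m c β := by
    have hinv : ∀ v ∈ eig g c, L Y v ∈ eig g c := by
      intro v hv
      have e1 : L g v = c • v := Module.End.mem_eigenspace_iff.1 hv
      apply Module.End.mem_eigenspace_iff.2
      rw [← L_mul_apply, h2, L_mul_apply, e1, map_smul]
    have heq := Submodule.eq_iSup_inf_genEigenspace (p := eig g c) (f := L Y) 1 hinv h4
    calc d = finrank F (⨆ β, eig g c ⊓ eig Y β : Submodule F (Fin n → F)) :=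
          congrArg (fun p : Submodule F (Fin n → F) => finrank F p) heq
      _ ≤ ∑ β, m c β := finrank_iSup_le_sum _
  have hmD : ∀ α β, m α β ≤ D β := fun α β => Submodule.finrank_mono inf_le_right
  have hm0 : ∀ α β, eig Y β = ⊥ → m α β = 0 := by
    intro α β h
    show finrank F (eig g α ⊓ eig Y β : Submodule F (Fin n → F)) = 0
    rw [h, inf_bot_eq, finrank_bot]
  -- it suffices to show `r d ≤ 2 n`
  suffices hsuff : r * d ≤ 2 * n by
    have : 5 * d ≤ r * d := Nat.mul_le_mul_right d hr5
    omega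
  by_cases hκ1 : κ = 1
  · -- case `κ = 1`
    have hM1' : ∀ α β, m α β ≤ m (α * β) β := by
      intro α β
      have := hM1 α β
      rwa [hκ1, inv_one, mul_one, mul_one] at this
    have hpow : ∀ (j : ℕ) (α β : F), m α β ≤ m (α * β ^ j) β := by
      intro j
      induction j with
      | zero => intro α β; rw [pow_zero, mul_one]
      | succ j ih =>
        intro α β
        refine (ih α β).trans ?_
        have := hM1' (α * β ^ j) β
        rwa [mul_assoc, ← pow_succ] at this
    have key : ∀ β, β ≠ 1 → r * m c β ≤ D β := by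
      intro β hβ1
      by_cases hbot : eig Y β = ⊥
      · rw [hm0 c β hbot, mul_zero]; exact Nat.zero_le _
      have hβr := h5 β hbot
      have hord : orderOf β = r := orderOf_eq_prime hβr hβ1
      have hinj : ∀ y, ((Finset.range r).filter (fun j => c * β ^ j = y)).card ≤ 1 := by
        intro y
        rw [Finset.card_le_one]
        intro a ha b hb
        rw [Finset.mem_filter, Finset.mem_range] at ha hb
        have h7 : β ^ a = β ^ b := mul_left_cancel₀ hc (ha.2.trans hb.2.symm)
        exact pow_injOn_Iio_orderOf (by rw [hord]; exact ha.1) (by rw [hord]; exact hb.1) h7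
      calc r * m c β = ∑ _j ∈ Finset.range r, m c β := by
            rw [Finset.sum_const, Finset.card_range, smul_eq_mul]
        _ ≤ ∑ j ∈ Finset.range r, m (c * β ^ j) β :=
            Finset.sum_le_sum (fun j _ => hpow j c β)
        _ ≤ 1 * ∑ α, m α β := sum_comp_le (Finset.range r) (fun j => c * β ^ j)
            (fun α => m α β) 1 hinj
        _ ≤ D β := by rw [one_mul]; exact hM0a β
    have e1 := Finset.add_sum_erase Finset.univ (fun β => m c β) (Finset.mem_univ (1 : F))
    have e2 := Finset.add_sum_erase Finset.univ D (Finset.mem_univ (1 : F))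
    have e3 : r * ∑ β ∈ Finset.univ.erase (1 : F), m c β ≤ ∑ β ∈ Finset.univ.erase (1 : F), D β := by
      rw [Finset.mul_sum]
      apply Finset.sum_le_sum
      intro β hβ
      exact key β (Finset.ne_of_mem_erase hβ)
    have e4 : r * d ≤ r * m c 1 + r * ∑ β ∈ Finset.univ.erase (1 : F), m c β := by
      rw [← Nat.mul_add]
      apply Nat.mul_le_mul_left
      exact hM3.trans (le_of_eq e1.symm)
    have e5 : r * m c 1 ≤ n := (Nat.mul_le_mul_left r (hmD c 1)).trans (h6 1)
    omega
  · -- case `κ ≠ 1`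
    have hord : orderOf κ = r := orderOf_eq_prime hκ hκ1
    have hprim : IsPrimitiveRoot κ r := hord ▸ IsPrimitiveRoot.orderOf κ
    have hE : ∀ (j : ℕ) (α : F), m α (κ ^ j) ≤ m (α * κ ^ tri j) 1 := by
      intro j
      induction j with
      | zero => intro α; simp [tri]
      | succ j ih =>
        intro α
        have e1 := hM1 α (κ ^ (j + 1))
        have e2 : κ ^ (j + 1) * κ⁻¹ = κ ^ j := by
          rw [pow_succ, mul_assoc, mul_inv_cancel₀ hκ0, mul_one]
        rw [mul_assoc, e2] at e1
        refine e1.trans ((ih _).trans (le_of_eq ?_))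
        rw [tri_succ, mul_assoc, ← pow_add, add_comm]
    have hs1 : ∑ β, m c β ≤ ∑ j ∈ Finset.range r, m c (κ ^ j) := by
      rw [← Finset.sum_fiberwise (Finset.range r) (fun j => κ ^ j)]
      apply Finset.sum_le_sum
      intro β _
      by_cases hbot : eig Y β = ⊥
      · rw [hm0 c β hbot]; exact Nat.zero_le _
      have : NeZero r := ⟨hr.ne_zero⟩
      obtain ⟨i, hi, hiβ⟩ := hprim.eq_pow_of_pow_eq_one (h5 β hbot)
      have hmem : i ∈ (Finset.range r).filter (fun j => κ ^ j = β) := by
        rw [Finset.mem_filter, Finset.mem_range]; exact ⟨hi, hiβ⟩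
      calc m c β = m c (κ ^ i) := by rw [hiβ]
        _ ≤ _ := Finset.single_le_sum (f := fun j => m c (κ ^ j)) (fun _ _ => Nat.zero_le _) hmem
    have h2to1 : ∀ y, ((Finset.range r).filter (fun j => c * κ ^ tri j = y)).card ≤ 2 := by
      intro y
      by_contra hcon
      push Not at hcon
      obtain ⟨a, ha, b, hb, e, he, hab, hae, hbe⟩ := Finset.two_lt_card.1 hcon
      rw [Finset.mem_filter, Finset.mem_range] at ha hb he
      have pair : ∀ j j', j < r → j' < r → j < j' → c * κ ^ tri j = c * κ ^ tri j' →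
          j + j' = 1 ∨ j + j' = r + 1 := by
        intro j j' _ hj' hlt heq
        have h7 : κ ^ tri j = κ ^ tri j' := mul_left_cancel₀ hc heq
        have hle := tri_mono (le_of_lt hlt)
        have h8 : κ ^ (tri j' - tri j) = 1 := by
          have : κ ^ tri j * κ ^ (tri j' - tri j) = κ ^ tri j * 1 := by
            rw [← pow_add, Nat.add_sub_cancel' hle, mul_one, h7]
          exact mul_left_cancel₀ (pow_ne_zero _ hκ0) this
        have h9 : r ∣ tri j' - tri j := hord ▸ orderOf_dvd_of_pow_eq_one h8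
        exact tri_pair hr hj' hlt h9
      have pair' : ∀ j j', j < r → j' < r → j ≠ j' → c * κ ^ tri j = c * κ ^ tri j' →
          j + j' = 1 ∨ j + j' = r + 1 := by
        intro j j' hj hj' hne heq
        rcases Nat.lt_or_gt_of_ne hne with h | h
        · exact pair j j' hj hj' h heq
        · have := pair j' j hj' hj h heq.symm
          omega
      have p1 := pair' a b ha.1 hb.1 hab (ha.2.trans hb.2.symm)
      have p2 := pair' a e ha.1 he.1 hae (ha.2.trans he.2.symm)
      have p3 := pair' b e hb.1 he.1 hbe (hb.2.trans he.2.symm)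
      omega
    have hs2 : ∑ j ∈ Finset.range r, m c (κ ^ j) ≤ 2 * D 1 := by
      calc ∑ j ∈ Finset.range r, m c (κ ^ j) ≤ ∑ j ∈ Finset.range r, m (c * κ ^ tri j) 1 :=
            Finset.sum_le_sum (fun j _ => hE j c)
        _ ≤ 2 * ∑ α, m α 1 := sum_comp_le (Finset.range r) (fun j => c * κ ^ tri j)
            (fun α => m α 1) 2 h2to1
        _ ≤ 2 * D 1 := Nat.mul_le_mul_left 2 (hM0a 1)
    have hd2 : d ≤ 2 * D 1 := hM3.trans (hs1.trans hs2)
    calc r * d ≤ r * (2 * D 1) := Nat.mul_le_mul_left r hd2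
      _ = 2 * (r * D 1) := by ring
      _ ≤ 2 * n := Nat.mul_le_mul_left 2 (h6 1)

end Cfsg.Agent.Lib.Helper63.Ext
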